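import Cfsg.Agent.H86.ThreeCounts
import Mathlib.GroupTheory.QuotientGroup.Finite
import Mathlib.Tactic.LinearCombination

/-!
# Groups in which the numbers of elements of each order take three values are solvable

The case of odd order is `H86.card_primeFactors_le_two`; the even case reduces to it or is a
short parity argument on the numbers of elements of orders `4, p, q, 4p, pq, 4pq`.
-/

namespace Cfsg.Agent.H28.ThreeCounts

open Cfsg.Agent.H86 Finset

theorem isSolvable_of_primeFactors_le_two {G : Type*} [Group G] [Finite G]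
    (h : (Nat.card G).primeFactors.card ≤ 2) : Group.IsSolvable G := by
  have h0 : Nat.card G ≠ 0 := Nat.card_pos.ne'
  have hprod := Nat.prod_factorization_pow_eq_self h0
  rw [Finsupp.prod, Nat.support_factorization] at hprod
  rcases Nat.lt_or_ge (Nat.card G).primeFactors.card 1 with h1 | h1
  · rw [Nat.lt_one_iff, Finset.card_eq_zero] at h1
    rw [h1, prod_empty] at hprod
    exact H25.isSolvable_of_card_eq_mul_pow (p := 2) (q := 3) (a := 0) (b := 0) Nat.prime_two Nat.prime_three
      (by simpa using hprod.symm)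
  rcases eq_or_lt_of_le h1 with h1 | h1
  · obtain ⟨p, hp⟩ := Finset.card_eq_one.1 h1.symm
    have hpp : p.Prime := Nat.prime_of_mem_primeFactors (n := Nat.card G) (by rw [hp]; simp)
    rw [hp, prod_singleton] at hprod
    exact H25.isSolvable_of_card_eq_mul_pow (q := p) (b := 0) hpp hpp (by simpa using hprod.symm)
  · obtain ⟨p, q, hpq, hπ⟩ := Finset.card_eq_two.1 (le_antisymm h h1)
    have hp : p.Prime := Nat.prime_of_mem_primeFactors (n := Nat.card G) (by rw [hπ]; simp)
    have hq : q.Prime := Nat.prime_of_mem_primeFactors (n := Nat.card G) (by rw [hπ]; simp)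
    rw [hπ, prod_pair hpq] at hprod
    exact H25.isSolvable_of_card_eq_mul_pow hp hq hprod.symm

variable {G : Type*} [Group G] [Finite G]

theorem exists_of_orderCount_ne_zero {m : ℕ} (h : orderCount G m ≠ 0) : ∃ g : G, orderOf g = m := by
  by_contra hne
  push Not at hne
  exact h (orderCount_eq_zero hne)

/-- A prime not dividing the number of elements of order `m` occurs next to `m`. -/
theorem orderCount_mul_ne_zero {m r : ℕ} (hr : r.Prime) (hrd : r ∣ Nat.card G)
    (hmr : m.Coprime r) (h : ¬ r ∣ orderCount G m) : orderCount G (m * r) ≠ 0 := by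
  have := Fact.mk hr
  obtain ⟨y, hy⟩ := exists_prime_orderOf_dvd_card' (G := G) r hrd
  obtain ⟨x, hx, hc⟩ : ∃ x : G, orderOf x = m ∧ Commute y x := by
    by_contra hne
    push Not at hne
    exact h (prime_dvd_orderCount hy hne)
  have ho : orderOf (x * y) = m * r := by
    rw [hc.symm.orderOf_mul_eq_mul_orderOf_of_coprime (by rw [hx, hy]; exact hmr), hx, hy]
  exact ho ▸ orderCount_pos.ne'

theorem two_ne_zero_of_odd_prime {p : ℕ} (hp : p.Prime) (hp2 : p ≠ 2) : (2 : ZMod p) ≠ 0 := by
  intro h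
  have h2 : p ∣ 2 := (ZMod.natCast_eq_zero_iff 2 p).1 (by exact_mod_cast h)
  exact hp2 ((Nat.prime_dvd_prime_iff_eq hp Nat.prime_two).1 h2)

theorem not_dvd_of_cast {p n : ℕ} [Fact p.Prime] {x : ZMod p} (h : (n : ZMod p) = x) (hx : x ≠ 0) :
    ¬ p ∣ n := fun hd => hx (h ▸ (ZMod.natCast_eq_zero_iff n p).2 hd)

/-- All orders at least three have the same count: at most one odd prime. -/
theorem false_of_single_value {b : ℕ} (hv : ∀ m, 3 ≤ m → orderCount G m ≠ 0 → orderCount G m = b)
    {p q : ℕ} (hp : p.Prime) (hq : q.Prime) (hp2 : p ≠ 2) (hq2 : q ≠ 2) (hpd : p ∣ Nat.card G)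
    (hqd : q ∣ Nat.card G) (hpq : p ≠ q) : False := by
  have := Fact.mk hp
  have := Fact.mk hq
  have h3 : ∀ {r : ℕ}, r.Prime → r ≠ 2 → 3 ≤ r := fun hr hr2 => by have := hr.two_le; omega
  have hpb := hv p (h3 hp hp2) fun h => not_dvd_orderCount_prime hp hpd (h ▸ dvd_zero p)
  have hqb := hv q (h3 hq hq2) fun h => not_dvd_orderCount_prime hq hqd (h ▸ dvd_zero q)
  have hbp := hpb ▸ cast_orderCount_prime (G := G) hp hpd
  have hbq := hqb ▸ cast_orderCount_prime (G := G) hq hqd
  have hne : orderCount G (p * q) ≠ 0 :=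
    orderCount_mul_ne_zero hq hqd ((Nat.coprime_primes hp hq).2 hpq)
      (hpb ▸ not_dvd_of_cast hbq (neg_ne_zero.2 one_ne_zero))
  have hX := hv (p * q) (by nlinarith [h3 hp hp2, h3 hq hq2]) hne
  have hs := cast_sum_orderCount (G := G) (p := p) (mul_ne_zero hp.ne_zero hq.ne_zero)
    (((Nat.coprime_primes hp hq).2 hpq).mul_dvd_of_dvd_of_dvd hpd hqd) (dvd_mul_right p q)
  rw [sum_divisors_prime_mul hp hq hpq, orderCount_one, hpb, hqb, hX] at hs
  push_cast at hs
  exact two_ne_zero_of_odd_prime hp hp2 (by linear_combination -hs + 3 * hbp)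

section UniqueInvolution

variable {z : G} (hz : orderOf z = 2) (huniq : ∀ g : G, orderOf g = 2 → g = z)

include hz huniq

theorem central (g : G) : Commute z g := by
  have h := huniq (g * z * g⁻¹) (((MulAut.conj g).orderOf_eq z).trans hz)
  exact (mul_inv_eq_iff_eq_mul.1 h).symm

theorem orderOf_z_mul {x : G} (hx : Odd (orderOf x)) : orderOf (z * x) = 2 * orderOf x := by
  rw [(central hz huniq x).orderOf_mul_eq_mul_orderOf_of_coprime
    (by rw [hz]; exact (Nat.coprime_two_left.2 hx)), hz]

theorem orderCount_two_mul {m : ℕ} (hm : Odd m) : orderCount G (2 * m) = orderCount G m := by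
  have hz2 : z * z = 1 := by rw [← sq, ← hz]; exact pow_orderOf_eq_one z
  have hback : ∀ y : G, orderOf y = 2 * m → orderOf (z * y) = m := by
    intro y hy
    have hym : orderOf (y ^ m) = 2 := by
      rw [orderOf_pow' y hm.pos.ne', hy, Nat.gcd_eq_right (dvd_mul_left m 2), Nat.mul_div_cancel _ hm.pos]
    have h1 : (z * y) ^ m = 1 := by
      rw [(central hz huniq y).mul_pow, huniq _ hym]
      obtain ⟨k, rfl⟩ := hm
      rw [pow_succ, pow_mul, sq, hz2, one_pow, one_mul, hz2]
    have hd : orderOf (z * y) ∣ m := orderOf_dvd_of_pow_eq_one h1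
    have h2 := orderOf_z_mul hz huniq (hm.of_dvd_nat hd)
    rw [← mul_assoc, hz2, one_mul, hy] at h2
    omega
  exact Nat.card_congr
    { toFun := fun y => ⟨z * y, hback y y.2⟩
      invFun := fun x => ⟨z * x, by rw [orderOf_z_mul hz huniq (x.2.symm ▸ hm), x.2]⟩
      left_inv := fun y => Subtype.ext (by simp [← mul_assoc, hz2])
      right_inv := fun x => Subtype.ext (by simp [← mul_assoc, hz2]) }

omit hz huniq in
theorem four_not_dvd_lemma {b c m : ℕ} (hv : ∀ m, 3 ≤ m → orderCount G m ≠ 0 → orderCount G m = b ∨ orderCount G m = c)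
    (hb : ¬ 4 ∣ b) (hm : 3 ≤ m) (h4 : 4 ∣ m.totient) (hne : orderCount G m ≠ 0) : orderCount G m = c :=
  (hv m hm hne).resolve_left fun h => hb (h ▸ h4.trans (totient_dvd_orderCount m))

/-- A unique involution and elements of order four: at most one odd prime. -/
theorem false_of_four {b c : ℕ} (hv : ∀ m, 3 ≤ m → orderCount G m ≠ 0 → orderCount G m = b ∨ orderCount G m = c)
    (h4 : orderCount G 4 = b) (hb0 : b ≠ 0) {p q : ℕ} (hp : p.Prime) (hq : q.Prime) (hp2 : p ≠ 2) (hq2 : q ≠ 2)
    (hpd : p ∣ Nat.card G) (hqd : q ∣ Nat.card G) (hpq : p ≠ q)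
    (hord : orderCount G p = b ∨ orderCount G q ≠ b) : False := by
  have := Fact.mk hp
  have := Fact.mk hq
  have h2 : orderCount G 2 = 1 := by
    refine Nat.card_eq_one_iff_unique.2 ⟨⟨fun a b => Subtype.ext ?_⟩, ⟨z, hz⟩⟩
    rw [huniq a a.2, huniq b b.2]
  obtain ⟨x, hx⟩ := exists_of_orderCount_ne_zero (h4.trans_ne hb0)
  have h4G : 4 ∣ Nat.card G := hx ▸ orderOf_dvd_natCard x
  have hdiv4 : (4 : ℕ).divisors = {1, 2, 4} := by decide
  have hsum4 : ∀ f : ℕ → ℕ, ∑ d ∈ (4 : ℕ).divisors, f d = f 1 + f 2 + f 4 := fun f => by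
    rw [hdiv4]; simp [add_assoc]
  have hnb : ¬ 4 ∣ b := by
    have := dvd_sum_orderCount (G := G) (m := 4) (by norm_num) h4G
    rw [hsum4, orderCount_one, h2, h4] at this
    omega
  have hc : ∀ {m : ℕ}, 3 ≤ m → 4 ∣ m.totient → orderCount G m ≠ 0 → orderCount G m = c :=
    fun hm h hne => four_not_dvd_lemma hv hnb hm h hne
  have h3 : ∀ {r : ℕ}, r.Prime → r ≠ 2 → 3 ≤ r := fun hr hr2 => by have := hr.two_le; omega
  have hp3 := h3 hp hp2
  have hq3 := h3 hq hq2
  have hcop : p.Coprime q := (Nat.coprime_primes hp hq).2 hpq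
  have hpo : Odd p := hp.odd_of_ne_two hp2
  have hqo : Odd q := hq.odd_of_ne_two hq2
  have h4cop : ∀ {r : ℕ}, Odd r → Nat.Coprime 4 r := fun hr => by
    simpa using Nat.Coprime.pow_left 2 (Nat.coprime_two_left.2 hr)
  have htot : ∀ {r : ℕ}, Odd r → r.Prime → 2 ∣ r.totient := fun hr hrp => by
    rw [Nat.totient_prime hrp]; obtain ⟨k, rfl⟩ := hr; omega
  have t4p : 4 ∣ (4 * p).totient := by
    rw [Nat.totient_mul (h4cop hpo), show Nat.totient 4 = 2 from by decide]
    exact Nat.mul_dvd_mul_left 2 (htot hpo hp)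
  have tpq : 4 ∣ (p * q).totient := by
    rw [Nat.totient_mul hcop]; exact Nat.mul_dvd_mul (htot hpo hp) (htot hqo hq)
  have hX : orderCount G (p * q) ≠ 0 → orderCount G (p * q) = c := hc (by nlinarith) tpq
  have hm1 : ∀ {r : ℕ}, Fact r.Prime → (-1 : ZMod r) ≠ 0 := fun h => by
    haveI := h; exact neg_ne_zero.2 one_ne_zero
  have hpv := hv p hp3 fun h => not_dvd_orderCount_prime hp hpd (h ▸ dvd_zero p)
  have hqv := hv q hq3 fun h => not_dvd_orderCount_prime hq hqd (h ▸ dvd_zero q)
  have cp := cast_orderCount_prime (G := G) hp hpd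
  have cq := cast_orderCount_prime (G := G) hq hqd
  have hpqd : p * q ∣ Nat.card G := hcop.mul_dvd_of_dvd_of_dvd hpd hqd
  have spq := cast_sum_orderCount (G := G) (p := p) (mul_ne_zero hp.ne_zero hq.ne_zero) hpqd (dvd_mul_right p q)
  rw [sum_divisors_prime_mul hp hq hpq, orderCount_one] at spq
  push_cast at spq
  by_cases hpb : orderCount G p = b
  · -- the elements of order `4 r` when `r` has the count of the order four
    have h4r : ∀ r : ℕ, r.Prime → r ≠ 2 → r ∣ Nat.card G → orderCount G r = b →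
        orderCount G (4 * r) = c ∧ ((c : ℕ) : ZMod r) = 1 := by
      intro r hr hr2 hrd hrb
      have := Fact.mk hr
      have hro : Odd r := hr.odd_of_ne_two hr2
      have cr : ((b : ℕ) : ZMod r) = -1 := hrb ▸ cast_orderCount_prime hr hrd
      have hne := orderCount_mul_ne_zero (m := 4) hr hrd (h4cop hro)
        (h4 ▸ not_dvd_of_cast cr (hm1 inferInstance))
      have hval : orderCount G (4 * r) = c := by
        refine hc (by have := hr.two_le; omega) ?_ hne
        rw [Nat.totient_mul (h4cop hro), show Nat.totient 4 = 2 from by decide]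
        exact Nat.mul_dvd_mul_left 2 (htot hro hr)
      refine ⟨hval, ?_⟩
      have hnd : ¬ r ∣ 4 := fun h => hr2 <| (Nat.prime_dvd_prime_iff_eq hr Nat.prime_two).1 <|
        hr.dvd_of_dvd_pow (n := 2) h
      have hs := cast_sum_orderCount (G := G) (p := r) (mul_ne_zero four_ne_zero hr.ne_zero)
        ((h4cop hro).mul_dvd_of_dvd_of_dvd h4G hrd) (dvd_mul_left r 4)
      rw [sum_divisors_mul_prime four_ne_zero hr hnd, hsum4, hsum4, orderCount_one, h2, h4, one_mul,
        orderCount_two_mul hz huniq hro, hrb, hval] at hs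
      push_cast at hs
      linear_combination hs - 3 * cr
    obtain ⟨h4pc, hcp⟩ := h4r p hp hp2 hpd hpb
    by_cases hqb : orderCount G q = b
    · obtain ⟨h4qc, hcq⟩ := h4r q hq hq2 hqd hqb
      rw [hpb] at cp
      rw [hpb, hqb] at spq
      have hXne : orderCount G (p * q) ≠ 0 :=
        orderCount_mul_ne_zero hq hqd hcop (hpb ▸ not_dvd_of_cast (hqb ▸ cq) (hm1 inferInstance))
      have hXc := hX hXne
      have hYne : orderCount G (4 * p * q) ≠ 0 :=
        orderCount_mul_ne_zero hq hqd (Nat.Coprime.mul_left (h4cop hqo) hcop)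
          (h4pc ▸ not_dvd_of_cast hcq one_ne_zero)
      have hYc : orderCount G (4 * p * q) = c := by
        refine hc (by nlinarith) ?_ hYne
        rw [Nat.totient_mul (Nat.Coprime.mul_left (h4cop hqo) hcop)]
        exact dvd_mul_of_dvd_left t4p _
      have hnd : ¬ q ∣ 4 * p := fun h => by
        rcases hq.dvd_mul.1 h with h | h
        · exact hq2 <| (Nat.prime_dvd_prime_iff_eq hq Nat.prime_two).1 <| hq.dvd_of_dvd_pow (n := 2) h
        · exact hpq ((Nat.prime_dvd_prime_iff_eq hq hp).1 h).symm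
      have hndp : ¬ p ∣ 4 := fun h =>
        hp2 <| (Nat.prime_dvd_prime_iff_eq hp Nat.prime_two).1 <| hp.dvd_of_dvd_pow (n := 2) h
      have hs := cast_sum_orderCount (G := G) (p := p) (mul_ne_zero (mul_ne_zero four_ne_zero hp.ne_zero) hq.ne_zero)
        ((Nat.Coprime.mul_left (h4cop hqo) hcop).mul_dvd_of_dvd_of_dvd
          ((h4cop hpo).mul_dvd_of_dvd_of_dvd h4G hpd) hqd) ((dvd_mul_left p 4).trans (dvd_mul_right _ q))
      have hpqo : Odd (p * q) := hpo.mul hqo
      rw [sum_divisors_mul_prime (mul_ne_zero four_ne_zero hp.ne_zero) hq hnd,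
        sum_divisors_mul_prime four_ne_zero hp hndp, sum_divisors_mul_prime four_ne_zero hp hndp,
        hsum4, hsum4, hsum4, hsum4] at hs
      simp only [one_mul] at hs
      rw [orderCount_one, h2, h4,
        orderCount_two_mul hz huniq hpo, orderCount_two_mul hz huniq hqo, mul_assoc 2 p q,
        orderCount_two_mul hz huniq hpqo, hpb, hqb, h4pc, h4qc, hXc, hYc] at hs
      push_cast at hs
      exact two_ne_zero_of_odd_prime hp hp2 (by linear_combination hs - 5 * cp - 5 * hcp)
    · have hqc := hqv.resolve_left hqb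
      rw [hpb] at cp
      have hXne : orderCount G (p * q) ≠ 0 := by
        rw [mul_comm]
        exact orderCount_mul_ne_zero hp hpd hcop.symm (hqc ▸ not_dvd_of_cast hcp one_ne_zero)
      rw [hpb, hqc, hX hXne] at spq
      exact two_ne_zero_of_odd_prime hp hp2 (by linear_combination spq - cp - 2 * hcp + 0)
  · have hpc := hpv.resolve_left hpb
    have hqc := hqv.resolve_left (hord.resolve_left hpb)
    rw [hpc] at cp
    rw [hqc] at cq
    have hXne : orderCount G (p * q) ≠ 0 :=
      orderCount_mul_ne_zero hq hqd hcop (hpc ▸ not_dvd_of_cast cq (hm1 inferInstance))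
    rw [hpc, hqc, hX hXne] at spq
    exact two_ne_zero_of_odd_prime hp hp2 (by linear_combination -spq + 3 * cp)

/-- A unique involution and no element of order four: pass to the quotient of odd order. -/
theorem isSolvable_of_no_four {b c : ℕ} (hbc : b ≠ c)
    (hv : ∀ m, 3 ≤ m → orderCount G m ≠ 0 → orderCount G m = b ∨ orderCount G m = c)
    (hodd : ¬ 4 ∣ Nat.card G) : Group.IsSolvable G := by
  set Z := Subgroup.zpowers z with hZdef
  have hz2 : z * z = 1 := by rw [← sq, ← hz]; exact pow_orderOf_eq_one z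
  have hmemZ : ∀ g : G, g ∈ Z → g = 1 ∨ g = z := by
    intro g hg
    rcases eq_or_ne g 1 with h | h
    · exact Or.inl h
    · refine Or.inr (huniq g ?_)
      have h1 : orderOf g ∣ 2 := hz ▸ orderOf_dvd_of_mem_zpowers hg
      exact ((Nat.dvd_prime Nat.prime_two).1 h1).resolve_left fun e => h (orderOf_eq_one_iff.1 e)
  haveI : Z.Normal := ⟨fun g hg k => by
    rcases hmemZ g hg with rfl | rfl
    · simp
    · rw [show k * g * k⁻¹ = g from by rw [← (central hz huniq k).eq, mul_inv_cancel_right]]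
      exact hg⟩
  have hcard : Nat.card G = Nat.card (G ⧸ Z) * 2 := by
    rw [Subgroup.card_eq_card_quotient_mul_card_subgroup Z, Nat.card_zpowers, hz]
  have hQodd : Odd (Nat.card (G ⧸ Z)) := by
    rcases Nat.even_or_odd (Nat.card (G ⧸ Z)) with h | h
    · obtain ⟨k, hk⟩ := h
      exact absurd ⟨k, by omega⟩ hodd
    · exact h
  have hmk : ∀ x : G, Odd (orderOf x) → orderOf (x : G ⧸ Z) = orderOf x := by
    intro x hx
    refine Nat.dvd_antisymm (orderOf_map_dvd (QuotientGroup.mk' Z) x) (orderOf_dvd_of_pow_eq_one ?_)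
    have h1 : x ^ orderOf (x : G ⧸ Z) ∈ Z := by
      rw [← QuotientGroup.eq_one_iff, QuotientGroup.mk_pow, pow_orderOf_eq_one]
    rcases hmemZ _ h1 with h | h
    · exact h
    · exfalso
      have h2 : 2 ∣ orderOf x := by
        rw [← hz, ← h]; exact orderOf_pow_dvd _
      exact Nat.not_even_iff_odd.2 hx (even_iff_two_dvd.2 h2)
  have hcount : ∀ m, Odd m → orderCount (G ⧸ Z) m = orderCount G m := by
    intro m hm
    refine (Nat.card_congr (Equiv.ofBijective
      (fun x : {g : G // orderOf g = m} =>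
        (⟨((x : G) : G ⧸ Z), (hmk x (x.2.symm ▸ hm)).trans x.2⟩ : {y : G ⧸ Z // orderOf y = m})) ⟨?_, ?_⟩)).symm
    · rintro ⟨x, hx⟩ ⟨y, hy⟩ h
      have h1 : x⁻¹ * y ∈ Z := QuotientGroup.eq.1 (congrArg Subtype.val h)
      apply Subtype.ext
      rcases hmemZ _ h1 with h2 | h2
      · exact inv_mul_eq_one.1 h2
      · exfalso
        have h3 : y = z * x := by rw [inv_mul_eq_iff_eq_mul.1 h2, (central hz huniq x).eq]
        have h4 := orderOf_z_mul hz huniq (x := x) (hx.symm ▸ hm)
        rw [← h3, hy, hx] at h4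
        have := hm.pos
        omega
    · rintro ⟨y, hy⟩
      obtain ⟨g, rfl⟩ := QuotientGroup.mk_surjective y
      have h1 : g ^ m ∈ Z := by rw [← QuotientGroup.eq_one_iff, QuotientGroup.mk_pow, ← hy, pow_orderOf_eq_one]
      obtain ⟨x, hxg, hx⟩ : ∃ x : G, (x : G ⧸ Z) = g ∧ x ^ m = 1 := by
        rcases hmemZ _ h1 with h | h
        · exact ⟨g, rfl, h⟩
        · refine ⟨z * g, ?_, ?_⟩
          · rw [QuotientGroup.mk_mul, (QuotientGroup.eq_one_iff z).2 (Subgroup.mem_zpowers z), one_mul]
          · rw [(central hz huniq g).mul_pow, h]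
            obtain ⟨k, rfl⟩ := hm
            rw [pow_succ, pow_mul, sq, hz2, one_pow, one_mul, hz2]
      refine ⟨⟨x, ?_⟩, Subtype.ext hxg⟩
      have hd : orderOf x ∣ m := orderOf_dvd_of_pow_eq_one hx
      rw [← hmk x (hm.of_dvd_nat hd), hxg, hy]
  have htv : TwoValued (G ⧸ Z) b c := by
    refine ⟨hbc, fun y hy => ?_⟩
    have ho : Odd (orderOf y) := hQodd.of_dvd_nat (orderOf_dvd_natCard y)
    have hy1 : orderOf y ≠ 1 := fun e => hy (orderOf_eq_one_iff.1 e)
    rw [hcount _ ho]
    refine hv _ ?_ ?_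
    · obtain ⟨k, hk⟩ := ho; omega
    · rw [← hcount _ ho]; exact orderCount_pos.ne'
  haveI : Group.IsSolvable (G ⧸ Z) := isSolvable_of_primeFactors_le_two (card_primeFactors_le_two hQodd htv)
  haveI : Group.IsSolvable Z := isSolvable_of_primeFactors_le_two (by
    rw [Nat.card_zpowers, hz, Nat.prime_two.primeFactors]; simp)
  exact Group.isSolvable_of_ker_le_range Z.subtype (QuotientGroup.mk' Z)
    (by rw [QuotientGroup.ker_mk', Subgroup.range_subtype])

end UniqueInvolution

/-- A finite group with exactly three numbers of elements of each occurring order is solvable. -/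
theorem isSolvable_of_three (h : ((fun m : ℕ => orderCount G m) '' Set.range (orderOf : G → ℕ)).ncard = 3) :
    Group.IsSolvable G := by
  classical
  set S : Set ℕ := (fun m : ℕ => orderCount G m) '' Set.range (orderOf : G → ℕ) with hS
  have hmem : ∀ m, orderCount G m ≠ 0 → orderCount G m ∈ S := fun m hm => by
    obtain ⟨g, hg⟩ := exists_of_orderCount_ne_zero hm
    exact ⟨m, ⟨g, hg⟩, rfl⟩
  have h1 : 1 ∈ S := ⟨1, ⟨1, orderOf_one⟩, orderCount_one⟩
  have h2 : (S \ {1}).ncard = 2 := by
    rw [Set.ncard_diff (Set.singleton_subset_iff.2 h1) (Set.finite_singleton 1), h, Set.ncard_singleton]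
  obtain ⟨b, c, hbc, hSbc⟩ := Set.ncard_eq_two.1 h2
  have heven : ∀ m, 3 ≤ m → 2 ∣ orderCount G m :=
    fun m hm => (even_totient_of_three_le hm).trans (totient_dvd_orderCount m)
  have hv : ∀ m, 3 ≤ m → orderCount G m ≠ 0 → orderCount G m = b ∨ orderCount G m = c := by
    intro m hm hne
    have : orderCount G m ∈ S \ {1} := ⟨hmem m hne, fun e => by
      have := heven m hm; rw [Set.mem_singleton_iff.1 e] at this; omega⟩
    rwa [hSbc] at this
  rcases Nat.even_or_odd (Nat.card G) with hev | hodd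
  swap
  · refine isSolvable_of_primeFactors_le_two (card_primeFactors_le_two hodd (a := b) (b := c) ⟨hbc, fun g hg => ?_⟩)
    refine hv _ ?_ orderCount_pos.ne'
    have h1' : orderOf g ≠ 1 := fun e => hg (orderOf_eq_one_iff.1 e)
    obtain ⟨k, hk⟩ := hodd.of_dvd_nat (orderOf_dvd_natCard g)
    omega
  by_contra hns
  obtain ⟨p, q, hp, hq, hp2, hq2, hpd, hqd, hpq⟩ : ∃ p q : ℕ, p.Prime ∧ q.Prime ∧ p ≠ 2 ∧ q ≠ 2 ∧
      p ∣ Nat.card G ∧ q ∣ Nat.card G ∧ p ≠ q := by
    have h3 : 2 < (Nat.card G).primeFactors.card := not_le.1 fun h' => hns (isSolvable_of_primeFactors_le_two h')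
    have h4 : 1 < ((Nat.card G).primeFactors.erase 2).card := by
      have := Finset.pred_card_le_card_erase (a := 2) (s := (Nat.card G).primeFactors)
      omega
    obtain ⟨p, hp, q, hq, hpq⟩ := Finset.one_lt_card.1 h4
    simp only [Finset.mem_erase, Nat.mem_primeFactors] at hp hq
    exact ⟨p, q, hp.2.1, hq.2.1, hp.1, hq.1, hp.2.2.1, hq.2.2.1, hpq⟩
  have h2d : 2 ∣ Nat.card G := even_iff_two_dvd.1 hev
  have h2odd : ¬ 2 ∣ orderCount G 2 := not_dvd_orderCount_prime Nat.prime_two h2d
  by_cases ha : orderCount G 2 = 1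
  · obtain ⟨z, hz⟩ := exists_of_orderCount_ne_zero (G := G) (m := 2) (by omega)
    have huniq : ∀ g : G, orderOf g = 2 → g = z := fun g hg => by
      have hs : Subsingleton {g : G // orderOf g = 2} := (Nat.card_eq_one_iff_unique.1 ha).1
      exact congrArg Subtype.val (hs.elim ⟨g, hg⟩ ⟨z, hz⟩)
    by_cases h4 : orderCount G 4 = 0
    · refine hns (isSolvable_of_no_four hz huniq hbc hv fun h4G => ?_)
      have := dvd_sum_orderCount (G := G) (m := 4) (by norm_num) h4G
      rw [show (4 : ℕ).divisors = {1, 2, 4} from by decide] at this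
      simp [orderCount_one, ha, h4] at this
    · have key : ∀ b c, (∀ m, 3 ≤ m → orderCount G m ≠ 0 → orderCount G m = b ∨ orderCount G m = c) →
          orderCount G 4 = b → False := by
        intro b c hv h4b
        by_cases hpb : orderCount G p = b
        · exact false_of_four hz huniq hv h4b (h4b ▸ h4) hp hq hp2 hq2 hpd hqd hpq (Or.inl hpb)
        · by_cases hqb : orderCount G q = b
          · exact false_of_four hz huniq hv h4b (h4b ▸ h4) hq hp hq2 hp2 hqd hpd hpq.symm (Or.inl hqb)
          · exact false_of_four hz huniq hv h4b (h4b ▸ h4) hp hq hp2 hq2 hpd hqd hpq (Or.inr hqb)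
      rcases hv 4 (by norm_num) h4 with h' | h'
      · exact key b c hv h'
      · exact key c b (fun m hm hne => (hv m hm hne).symm) h'
  · have hmem2 : orderCount G 2 ∈ S \ {1} := ⟨hmem 2 fun h0 => h2odd (h0 ▸ dvd_zero 2), ha⟩
    rw [hSbc] at hmem2
    have key : ∀ b c, orderCount G 2 = b →
        (∀ m, 3 ≤ m → orderCount G m ≠ 0 → orderCount G m = b ∨ orderCount G m = c) → False := by
      intro b c hb hv
      refine false_of_single_value (b := c) (fun m hm hne => (hv m hm hne).resolve_left fun e => ?_)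
        hp hq hp2 hq2 hpd hqd hpq
      exact h2odd (hb ▸ e ▸ heven m hm)
    rcases hmem2 with h' | h'
    · exact key b c h' hv
    · exact key c b h' (fun m hm hne => (hv m hm hne).symm)

end Cfsg.Agent.H28.ThreeCounts
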