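import Cfsg.Agent.H40.RegularBlocks
import Cfsg.Agent.H40.BlockBasic
import Cfsg.Agent.H40.CentralQuotient
import Cfsg.Agent.H43.CharTools
import Cfsg.Agent.H24.PGroupBasic
import Cfsg.Agent.H58.FrattiniAction

/-!
# Blocks of the quotient by the derived subgroup of a normal `p`-subgroup
-/

set_option autoImplicit false
set_option linter.unusedSectionVars false

namespace Cfsg.Agent.H28.DerivedQuotientBlock

open Cfsg
open scoped ComplexConjugate
open Cfsg.Agent.H41 (localRing res memLocalIdeal_iff_res)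

variable {G : Type*} [Group G] [Finite G] {p : ℕ} [Fact p.Prime] {D : Subgroup G} [D.Normal]

theorem isPGroup_derived (hD : IsPGroup p D) : IsPGroup p (⁅D, D⁆ : Subgroup G) :=
  hD.to_le (Subgroup.commutator_le.2 fun a ha b hb => by
    rw [commutatorElement_def]
    exact mul_mem (mul_mem (mul_mem ha hb) (inv_mem ha)) (inv_mem hb))

/-- A regular element centralising `D / D'` centralises `D`. -/
theorem mem_centralizer_of_mk (hD : IsPGroup p D) : ∀ (g : G), ¬ p ∣ orderOf g →
    (g : G ⧸ ⁅D, D⁆) ∈ Subgroup.centralizer ((D.map (QuotientGroup.mk' ⁅D, D⁆) : Subgroup (G ⧸ ⁅D, D⁆)) : Set (G ⧸ ⁅D, D⁆)) →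
    g ∈ Subgroup.centralizer (D : Set G) := by
  intro g
  induction hn : orderOf g using Nat.strong_induction_on generalizing g with
  | h n ih =>
    subst hn
    intro hg hmk
    rcases eq_or_ne (orderOf g) 1 with h1 | h1
    · rw [orderOf_eq_one_iff.1 h1]; exact one_mem _
    obtain ⟨r, hr, hrd⟩ := Nat.exists_prime_and_dvd h1
    have := Fact.mk hr
    have hrp : r ≠ p := fun e => hg (e ▸ hrd)
    have hlt : orderOf (g ^ r) < orderOf g := by
      rw [orderOf_pow' g hr.ne_zero, Nat.gcd_eq_right hrd]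
      exact Nat.div_lt_self (orderOf_pos g) hr.one_lt
    have hgr : g ^ r ∈ Subgroup.centralizer (D : Set G) :=
      ih _ hlt _ rfl (fun h => hg (h.trans (orderOf_pow_dvd r))) (by
        rw [QuotientGroup.mk_pow]; exact pow_mem hmk r)
    set e : MulAut D := MulAut.conjNormal g with he
    have her : e ^ r = 1 := by
      rw [he, ← map_pow]
      refine MulEquiv.ext fun d => Subtype.ext ?_
      rw [MulAut.conjNormal_apply]
      change g ^ r * (d : G) * (g ^ r)⁻¹ = (d : G)
      rw [← Subgroup.mem_centralizer_iff.1 hgr d d.2, mul_inv_cancel_right]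
    have htriv : ∀ q : D, q⁻¹ * e q ∈ frattini D := by
      intro q
      apply H24.commutator_le_frattini hD
      have h2 : ((q⁻¹ * e q : D) : G) ∈ ⁅D, D⁆ := by
        rw [← QuotientGroup.eq_one_iff, Subgroup.coe_mul, Subgroup.coe_inv, he, MulAut.conjNormal_apply]
        simp only [QuotientGroup.mk_mul, QuotientGroup.mk_inv]
        rw [← Subgroup.mem_centralizer_iff.1 hmk (q : G ⧸ ⁅D, D⁆) ⟨q, q.2, rfl⟩, mul_inv_cancel_right,
          inv_mul_cancel]
      rw [← Subgroup.map_subtype_commutator D] at h2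
      obtain ⟨y, hy, hye⟩ := h2
      rwa [← Subtype.ext hye]
    refine Subgroup.mem_centralizer_iff.2 fun d hd => ?_
    have h3 := H58.aut_eq_one_of_trivial_mod_frattini hD hrp e her htriv ⟨d, hd⟩
    have h4 : g * d * g⁻¹ = d := by
      have := congrArg Subtype.val h3
      rwa [he, MulAut.conjNormal_apply] at this
    exact (mul_inv_eq_iff_eq_mul.1 h4).symm

/-- A regular element centralising `D` is the only regular element of its coset of `D'`. -/
theorem eq_one_of_regular_mul (hD : IsPGroup p D) {g : G} (hg : g ∈ Subgroup.centralizer (D : Set G))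
    (hreg : ¬ p ∣ orderOf g) {n : G} (hn : n ∈ ⁅D, D⁆) (hn' : ¬ p ∣ orderOf (n * g)) : n = 1 := by
  have hp := (Fact.out : p.Prime)
  have hle : ⁅D, D⁆ ≤ D := Subgroup.commutator_le.2 fun a ha b hb => by
    rw [commutatorElement_def]
    exact mul_mem (mul_mem (mul_mem ha hb) (inv_mem ha)) (inv_mem hb)
  have hc : Commute n g := Subgroup.mem_centralizer_iff.1 hg n (hle hn)
  obtain ⟨j, hj⟩ := IsPGroup.iff_orderOf.1 (isPGroup_derived hD) ⟨n, hn⟩
  rw [← Subgroup.orderOf_coe] at hj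
  rcases Nat.eq_zero_or_pos j with rfl | hj0
  · exact orderOf_eq_one_iff.1 (by simpa using hj)
  · refine absurd ?_ hn'
    rw [hc.orderOf_mul_eq_mul_orderOf_of_coprime (by rw [hj]; exact (hp.coprime_iff_not_dvd.2 hreg).pow_left j), hj]
    exact (dvd_pow_self p hj0.ne').mul_right _

theorem index_centralizer_mk (hD : IsPGroup p D) {g : G} (hg : g ∈ Subgroup.centralizer (D : Set G))
    (hreg : ¬ p ∣ orderOf g) :
    (Subgroup.centralizer ({(g : G ⧸ ⁅D, D⁆)} : Set (G ⧸ ⁅D, D⁆))).index =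
      (Subgroup.centralizer ({g} : Set G)).index := by
  rw [← Subgroup.index_comap_of_surjective
    (Subgroup.centralizer ({(g : G ⧸ ⁅D, D⁆)} : Set (G ⧸ ⁅D, D⁆))) (QuotientGroup.mk'_surjective ⁅D, D⁆)]
  congr 1
  ext a
  rw [Subgroup.mem_comap, QuotientGroup.mk'_apply, Subgroup.mem_centralizer_singleton_iff,
    Subgroup.mem_centralizer_singleton_iff, ← QuotientGroup.mk_mul, ← QuotientGroup.mk_mul]
  refine ⟨fun h => ?_, fun h => congrArg _ h⟩
  have h1 : a * g * a⁻¹ * g⁻¹ ∈ ⁅D, D⁆ := by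
    rw [← QuotientGroup.eq_one_iff, QuotientGroup.mk_mul, QuotientGroup.mk_mul, h, ← QuotientGroup.mk_mul,
      ← QuotientGroup.mk_mul, mul_inv_cancel_right, mul_inv_cancel, QuotientGroup.mk_one]
  have h2 := eq_one_of_regular_mul hD hg hreg h1 (by
    rw [inv_mul_cancel_right]; exact fun h => hreg ((MulAut.conj a).orderOf_eq g ▸ h))
  exact mul_inv_eq_iff_eq_mul.1 (mul_inv_eq_one.1 h2)

variable {M : Ideal AlgInt}

/-- Inflation respects and reflects blocks. -/
theorem sameBlock_inflate_iff (hM : IsPModular p M) (hD : IsPGroup p D) (χ ψ : IrrCharacter (G ⧸ ⁅D, D⁆)) :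
    SameBlock M (χ : G ⧸ ⁅D, D⁆ → ℂ) (ψ : G ⧸ ⁅D, D⁆ → ℂ) ↔
      SameBlock M (H44.inflate ⁅D, D⁆ χ : G → ℂ) (H44.inflate ⁅D, D⁆ ψ : G → ℂ) := by
  have := hM.2.1
  have := Fintype.ofFinite G
  haveI : (D.map (QuotientGroup.mk' ⁅D, D⁆)).Normal :=
    Subgroup.Normal.map inferInstance _ (QuotientGroup.mk'_surjective _)
  have hD' : IsPGroup p (D.map (QuotientGroup.mk' ⁅D, D⁆)) := hD.map _
  have hsub : ∀ {x y : ℂ}, MemLocalIdeal M x → MemLocalIdeal M y → MemLocalIdeal M (x - y) := by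
    intro x y hx hy
    obtain ⟨h1, e1⟩ := memLocalIdeal_iff_res.1 hx
    obtain ⟨h2, e2⟩ := memLocalIdeal_iff_res.1 hy
    refine memLocalIdeal_iff_res.2 ⟨(localRing M).sub_mem h1 h2, ?_⟩
    have key : res M (⟨x, h1⟩ - ⟨y, h2⟩) = 0 := by rw [map_sub, e1, e2, sub_zero]
    exact key
  have hout : ∀ g : G, ¬ p ∣ orderOf g → g ∉ Subgroup.centralizer (D : Set G) →
      ∀ φ : IrrCharacter (G ⧸ ⁅D, D⁆),
        MemLocalIdeal M (centralChar (H44.inflate ⁅D, D⁆ φ : G → ℂ) g) ∧
        MemLocalIdeal M (centralChar (φ : G ⧸ ⁅D, D⁆ → ℂ) (g : G ⧸ ⁅D, D⁆)) := by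
    intro g hg hgC φ
    constructor
    · refine H40.memLocalIdeal_centralChar_of_normal hM _ hD fun x hx hxC => hgC ?_
      obtain ⟨c, hc⟩ := isConj_iff.1 hx
      have h1 := (Subgroup.normal_centralizer (H := D)).conj_mem _ hxC c⁻¹
      rw [← hc] at h1
      simpa [mul_assoc] using h1
    · refine H40.memLocalIdeal_centralChar_of_normal hM _ hD' fun x hx hxC => hgC (mem_centralizer_of_mk hD g hg ?_)
      obtain ⟨c, hc⟩ := isConj_iff.1 hx
      have h1 := (Subgroup.normal_centralizer (H := D.map (QuotientGroup.mk' ⁅D, D⁆))).conj_mem _ hxC c⁻¹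
      rw [← hc] at h1
      simpa [mul_assoc] using h1
  have hin : ∀ g : G, ¬ p ∣ orderOf g → g ∈ Subgroup.centralizer (D : Set G) →
      ∀ φ : IrrCharacter (G ⧸ ⁅D, D⁆), centralChar (H44.inflate ⁅D, D⁆ φ : G → ℂ) g =
        centralChar (φ : G ⧸ ⁅D, D⁆ → ℂ) (g : G ⧸ ⁅D, D⁆) := by
    intro g hg hgC φ
    rw [centralChar, centralChar, index_centralizer_mk hD hgC hg, H44.inflate_apply, H44.inflate_apply,
      QuotientGroup.mk_one]
  constructor
  · intro h
    refine H40.sameBlock_of_regular hM fun g hg => ?_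
    by_cases hgC : g ∈ Subgroup.centralizer (D : Set G)
    · rw [hin g hg hgC χ, hin g hg hgC ψ]; exact h _
    · exact hsub (hout g hg hgC χ).1 (hout g hg hgC ψ).1
  · intro h
    refine H40.sameBlock_of_regular hM fun q hq => ?_
    obtain ⟨g, hg, rfl⟩ := H40.exists_regular_lift (isPGroup_derived hD) hq
    by_cases hgC : g ∈ Subgroup.centralizer (D : Set G)
    · rw [← hin g hg hgC χ, ← hin g hg hgC ψ]; exact h _
    · exact hsub (hout g hg hgC χ).2 (hout g hg hgC ψ).2

/-- Coset sums of an irreducible character not trivial on a normal subgroup vanish. -/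
theorem sum_coset_eq_zero [Fintype G] (N : Subgroup G) [N.Normal] [Fintype N] (χ : IrrCharacter G)
    (h : ¬ N ≤ H44.kerOf χ) (g : G) : ∑ n : N, (χ : G → ℂ) (n * g) = 0 := by
  classical
  have hf : IsClassFunction G (fun x => if x ∈ N then (1 : ℂ) else 0) := fun a b => by
    refine if_congr ⟨fun h => ?_, fun h => Subgroup.Normal.conj_mem inferInstance a h b⟩ rfl rfl
    simpa [mul_assoc] using Subgroup.Normal.conj_mem inferInstance _ h b⁻¹
  have hsum : ∀ F : G → ℂ, ∑ x, (if x ∈ N then (1 : ℂ) else 0) * F x = ∑ n : N, F n := fun F => by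
    simp only [ite_mul, one_mul, zero_mul]
    rw [← Finset.sum_filter]
    exact Finset.sum_subtype _ (by simp) F
  have htr : ∀ y : G, ∑ n : N, (χ : G → ℂ) (n * y) = (∑ n : N, (χ : G → ℂ) n) / (χ : G → ℂ) 1 * (χ : G → ℂ) y :=
    fun y => by
      have := H43.sum_mul_translate hf χ y
      rwa [hsum (fun x => (χ : G → ℂ) (x * y)), hsum] at this
  set c := (∑ n : N, (χ : G → ℂ) n) with hc
  suffices hc0 : c = 0 by rw [htr, hc0, zero_div, zero_mul]
  by_contra hne
  have h1 : c / (χ : G → ℂ) 1 * c = (Nat.card N : ℂ) * c := by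
    calc c / (χ : G → ℂ) 1 * c = ∑ m : N, ∑ n : N, (χ : G → ℂ) (n * m) := by
          rw [Finset.sum_congr rfl fun (m : N) _ => htr m, ← Finset.mul_sum]
      _ = ∑ _m : N, c := Finset.sum_congr rfl fun m _ =>
          Fintype.sum_equiv (Equiv.mulRight m) _ _ fun n => by simp
      _ = (Nat.card N : ℂ) * c := by rw [Finset.sum_const, Finset.card_univ, nsmul_eq_mul, Nat.card_eq_fintype_card]
  have h2 : c / (χ : G → ℂ) 1 = Nat.card N := mul_right_cancel₀ hne h1
  rw [div_eq_iff (H26.irr_one_ne_zero χ)] at h2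
  apply h
  have hd := H43.irr_charDegree_spec χ
  set d := charDegree (χ : G → ℂ) with hdd
  intro x hx
  rw [H44.mem_kerOf]
  have hle : ∀ n : N, ((χ : G → ℂ) n).re ≤ d := fun n =>
    (Complex.re_le_norm _).trans (H44.norm_irr_le χ n)
  have hre : ∑ n : N, ((χ : G → ℂ) n).re = ∑ _n : N, (d : ℝ) := by
    rw [← Complex.re_sum, ← hc, h2, hd, Finset.sum_const, Finset.card_univ, ← Nat.card_eq_fintype_card]
    simp
  have heq := (Finset.sum_eq_sum_iff_of_le fun n _ => hle n).1 hre ⟨x, hx⟩ (Finset.mem_univ _)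
  have hn2 : ‖(χ : G → ℂ) x‖ ≤ d := H44.norm_irr_le χ x
  have hre_eq : ((χ : G → ℂ) x).re = ‖(χ : G → ℂ) x‖ :=
    le_antisymm (Complex.re_le_norm _) (hn2.trans (le_of_eq heq.symm))
  have him : ((χ : G → ℂ) x).im = 0 := (Complex.nonneg_iff.1 (Complex.re_eq_norm.1 hre_eq)).2.symm
  rw [hd]
  exact Complex.ext (by simpa using heq) (by simpa using him)

/-- Every block contains the inflation of a character of the quotient. -/
theorem exists_inflate_mem (hM : IsPModular p M) (hD : IsPGroup p D) {B : Set (IrrCharacter G)}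
    (hB : IsPBlock M B) : ∃ χ : IrrCharacter (G ⧸ ⁅D, D⁆), H44.inflate ⁅D, D⁆ χ ∈ B := by
  classical
  have := hM.2.1
  have := Fintype.ofFinite G
  have := Fintype.ofFinite (⁅D, D⁆ : Subgroup G)
  by_contra hne
  push Not at hne
  have hker : ∀ θ ∈ B, ¬ ⁅D, D⁆ ≤ H44.kerOf θ := fun θ hθ hle => by
    obtain ⟨ψ, hψ⟩ := H44.exists_eq_inflate _ θ hle
    exact hne ψ (hψ ▸ hθ)
  obtain ⟨g, hg⟩ := H40.exists_isDefectClass hM hB
  have hreg := H40.not_dvd_orderOf_of_coeffUnit hM hB (⟨hg.1, hg.2.1⟩ : H40.CoeffUnit M B g)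
  obtain ⟨θ, hθ⟩ := H41.IsPBlock.nonempty hB
  have hgC : g ∈ Subgroup.centralizer (D : Set G) := by
    by_contra hgC
    refine hg.2.2 θ hθ (H40.memLocalIdeal_centralChar_of_normal hM θ hD fun x hx hxC => hgC ?_)
    obtain ⟨c, hc⟩ := isConj_iff.1 hx
    have h1 := (Subgroup.normal_centralizer (H := D)).conj_mem _ hxC c⁻¹
    rw [← hc] at h1
    simpa [mul_assoc] using h1
  have h0 : ∑ n : (⁅D, D⁆ : Subgroup G), blockCoeff B ((n : G) * g) = 0 := by
    simp only [blockCoeff, finsum_mem_eq_finite_toFinset_sum _ (Set.toFinite B)]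
    rw [← Finset.mul_sum, Finset.sum_comm, Finset.sum_eq_zero, mul_zero]
    intro η hη
    rw [← Finset.mul_sum, ← map_sum, sum_coset_eq_zero _ η (hker η ((Set.Finite.mem_toFinset _).1 hη)) g,
      map_zero, mul_zero]
  rw [Finset.sum_eq_single (1 : (⁅D, D⁆ : Subgroup G)), Subgroup.coe_one, one_mul] at h0
  · refine hg.2.1 (h0 ▸ memLocalIdeal_iff_res.2 ⟨(localRing M).zero_mem, ?_⟩)
    exact map_zero (res M)
  · intro n _ hn
    refine H40.blockCoeff_eq_zero_of_singular hM hB (not_not.1 fun h => hn ?_)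
    exact Subtype.ext (eq_one_of_regular_mul hD hgC hreg n.2 h)
  · exact fun h => absurd (Finset.mem_univ _) h

end Cfsg.Agent.H28.DerivedQuotientBlock
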