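import Mathlib
import Cfsg.Prelude.Def_TwoFusion
import Cfsg.Prelude.Def_CaseTheorems
import Cfsg.Agent.H28.ZStar
import Cfsg.Agent.H20.Sylow
import Cfsg.Agent.H20.FixedPoints

/-!
# Sylow subgroups invariant under an isolated involution

Consequences of Glauberman's Z*-theorem and coprime action.
-/

open scoped Pointwise

namespace Cfsg.Agent.H28

universe u

variable {G : Type u} [Group G] [Finite G] {z : G}

/-- An isolated involution is central modulo the odd core. -/
theorem commutator_mem_oddCore (hz : Cfsg.IsIsolatedInvolution z) (g : G) :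
    z * g * z⁻¹ * g⁻¹ ∈ Cfsg.oddCore G :=
  zStar ⟨hz.1, hz.2⟩ g

omit [Finite G] in
/-- A power of `z` lies in a normalizer as soon as `z` does. -/
theorem zpowers_le_normalizer {K : Subgroup G} (h : z ∈ Subgroup.normalizer (K : Set G)) :
    Subgroup.zpowers z ≤ Subgroup.normalizer (K : Set G) :=
  Subgroup.zpowers_le.mpr h

/-- A subgroup containing `O(G)` is normalized by an isolated involution. -/
theorem mem_normalizer_of_oddCore_le (hz : Cfsg.IsIsolatedInvolution z) {K : Subgroup G}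
    (hK : Cfsg.oddCore G ≤ K) : z ∈ Subgroup.normalizer (K : Set G) := by
  have h : ∀ k ∈ K, z * k * z⁻¹ ∈ K := fun k hk => by
    have := K.mul_mem (hK (commutator_mem_oddCore hz k)) hk
    rwa [inv_mul_cancel_right] at this
  refine Subgroup.mem_normalizer_iff.mpr fun k => ⟨h k, fun hk => ?_⟩
  have h1 := h _ hk
  rw [inv_eq_self_of_orderOf_two hz.1] at h1
  rwa [show z * (z * k * z) * z = (z * z) * k * (z * z) by simp [mul_assoc],
    mul_self_of_orderOf_two hz.1, one_mul, mul_one] at h1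

/-- A maximal invariant `p`-subgroup is a Sylow subgroup. -/
theorem sylow_of_maximal_invariant (hz : Cfsg.IsIsolatedInvolution z) {p : ℕ} [hp : Fact p.Prime]
    (Q : Subgroup G) (hQ : IsPGroup p Q) (hzQ : z ∈ Subgroup.normalizer (Q : Set G))
    (hmax : ∀ R : Subgroup G, IsPGroup p R → z ∈ Subgroup.normalizer (R : Set G) → Q ≤ R → R = Q) :
    ∃ P : Sylow p G, (P : Subgroup G) = Q := by
  have hA : Nat.card (Subgroup.zpowers z) = 2 := by rw [Nat.card_zpowers, hz.1]
  rcases eq_or_ne p 2 with rfl | hp2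
  · have hz2 : IsPGroup 2 (Subgroup.zpowers z) := IsPGroup.of_card (n := 1) (by rw [hA, pow_one])
    obtain ⟨P, hP⟩ := (hz2.to_sup_of_normal_right' hQ (zpowers_le_normalizer hzQ)).exists_le_sylow
    exact ⟨P, hmax P P.isPGroup'
      (Subgroup.le_normalizer (hP (le_sup_left (b := Q) (Subgroup.mem_zpowers z))))
      ((le_sup_right (a := Subgroup.zpowers z)).trans hP)⟩
  haveI hOn : (Cfsg.oddCore G).Normal := H19.pPrimeCore_normal 2 G
  set O := Cfsg.oddCore G with hO
  set M := Subgroup.normalizer (Q : Set G) with hM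
  haveI : (Q.subgroupOf M).Normal := Subgroup.normal_subgroupOf_of_le_normalizer le_rfl
  obtain ⟨R₀⟩ : Nonempty (Sylow p M) := inferInstance
  set R := (R₀ : Subgroup M).map M.subtype with hR
  have hQM : Q ≤ M := Subgroup.le_normalizer
  have hQR : Q ≤ R := by
    have h : IsPGroup p (Q.subgroupOf M) := hQ.comap_of_injective M.subtype M.subtype_injective
    have h' := Subgroup.map_mono (f := M.subtype) (h.le_sylow_of_normal R₀)
    rwa [Subgroup.subgroupOf_map_subtype, inf_eq_left.mpr hQM] at h'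
  have hRp : IsPGroup p R := R₀.isPGroup'.map _
  set T := M ⊓ (O ⊔ R) with hT
  have hRT : R ≤ T := le_inf (Subgroup.map_subtype_le _) le_sup_right
  have hzT : Subgroup.zpowers z ≤ Subgroup.normalizer (T : Set G) :=
    H20.le_normalizer_inf (zpowers_le_normalizer (Subgroup.le_normalizer hzQ))
      (zpowers_le_normalizer (mem_normalizer_of_oddCore_le hz le_sup_left))
  have hodd : (Nat.card (Subgroup.zpowers z)).Coprime (Nat.card T) := by
    rw [hA]
    refine Nat.Coprime.coprime_dvd_right (Subgroup.card_dvd_of_le inf_le_right) ?_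
    have e : Nat.card ↥(O ⊔ R) = Nat.card O * O.relIndex R := by
      rw [sup_comm, ← Subgroup.relIndex_sup_right (H := R) (K := O)]
      have := Subgroup.relIndex_mul_relIndex ⊥ O (R ⊔ O) bot_le le_sup_right
      rwa [Subgroup.relIndex_bot_left, Subgroup.relIndex_bot_left, eq_comm] at this
    rw [e]
    refine Nat.Coprime.mul_right (H19.pPrimeCore_coprime 2).symm ?_
    obtain ⟨n, hn⟩ := hRp.exists_card_eq
    refine Nat.Coprime.coprime_dvd_right ((Subgroup.relIndex_dvd_card O R).trans (dvd_of_eq hn)) ?_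
    exact Nat.Coprime.pow_right _ ((Nat.coprime_primes Nat.prime_two hp.out).mpr hp2.symm)
  obtain ⟨P₁, hQP, hzP⟩ := H20.exists_invariant_sylow_ge hzT hodd
    (Or.inl (isSolvable_of_comm fun a b => mul_comm' a b)) p (hQR.trans hRT) hQ
    (zpowers_le_normalizer hzQ)
  have hP₁ : (P₁ : Subgroup T).map T.subtype = Q :=
    hmax _ (P₁.isPGroup'.map _) (hzP (Subgroup.mem_zpowers z)) hQP
  -- `Q` has the order of a Sylow subgroup of its normalizer
  have hle : Nat.card R ≤ Nat.card Q := by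
    rw [← hP₁, H20.card_map_sylow P₁]
    obtain ⟨n, hn⟩ := hRp.exists_card_eq
    rw [hn]
    exact Nat.pow_le_pow_right hp.out.pos ((hp.out.pow_dvd_iff_le_factorization Nat.card_pos.ne').mp
      (hn ▸ Subgroup.card_dvd_of_le hRT))
  obtain ⟨P, hP⟩ := hQ.exists_le_sylow
  refine ⟨P, by_contra fun hne => ?_⟩
  obtain ⟨a, haP, haQ, hanorm⟩ := exists_mem_normalizer_not_mem P.isPGroup' hP (Ne.symm hne)
  obtain ⟨n, hn⟩ := hQ.exists_card_eq
  have hQ' : Subgroup.zpowers a ⊔ Q ≤ M := sup_le (Subgroup.zpowers_le.mpr hanorm) hQM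
  have hp' : IsPGroup p (Subgroup.zpowers a ⊔ Q : Subgroup G) :=
    P.isPGroup'.to_le (sup_le (Subgroup.zpowers_le.mpr haP) hP)
  have hcard : Nat.card ↥(Subgroup.zpowers a ⊔ Q) ≤ Nat.card R := by
    obtain ⟨R', hR'⟩ := (hp'.comap_of_injective M.subtype M.subtype_injective).exists_le_sylow
    calc Nat.card ↥(Subgroup.zpowers a ⊔ Q)
        = Nat.card ((Subgroup.zpowers a ⊔ Q).subgroupOf M) :=
          (Nat.card_congr (Subgroup.subgroupOfEquivOfLe hQ').toEquiv).symm
      _ ≤ Nat.card (R' : Subgroup M) := Subgroup.card_le_of_le hR'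
      _ = Nat.card (R₀ : Subgroup M) := by rw [R'.card_eq_multiplicity, R₀.card_eq_multiplicity]
      _ = Nat.card R := (Subgroup.card_map_of_injective M.subtype_injective).symm
  exact haQ ((Subgroup.eq_of_le_of_card_ge le_sup_right (hcard.trans hle)).symm ▸
    Subgroup.mem_sup_left (Subgroup.mem_zpowers a))
where
  mul_comm' {x : G} (a b : Subgroup.zpowers x) : a * b = b * a :=
    Subtype.ext (by
      obtain ⟨i, hi⟩ := Subgroup.mem_zpowers_iff.mp a.2
      obtain ⟨j, hj⟩ := Subgroup.mem_zpowers_iff.mp b.2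
      simp only [Subgroup.coe_mul, ← hi, ← hj, ← zpow_add, add_comm])

/-- An invariant `p`-subgroup lies in an invariant Sylow subgroup. -/
theorem exists_invariant_sylow_ge (hz : Cfsg.IsIsolatedInvolution z) {p : ℕ} [Fact p.Prime]
    {U : Subgroup G} (hU : IsPGroup p U) (hzU : z ∈ Subgroup.normalizer (U : Set G)) :
    ∃ P : Sylow p G, U ≤ (P : Subgroup G) ∧ z ∈ Subgroup.normalizer ((P : Subgroup G) : Set G) := by
  obtain ⟨Q, ⟨hUQ, hQ, hzQ⟩, hmax⟩ :=
    (Set.toFinite {W : Subgroup G | U ≤ W ∧ IsPGroup p W ∧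
      z ∈ Subgroup.normalizer (W : Set G)}).exists_maximal ⟨U, le_rfl, hU, hzU⟩
  obtain ⟨P, hP⟩ := sylow_of_maximal_invariant hz Q hQ hzQ
    fun R hR hzR hQR => le_antisymm (hmax ⟨hUQ.trans hQR, hR, hzR⟩ hQR) hQR
  exact ⟨P, hP.symm ▸ hUQ, hP.symm ▸ hzQ⟩

/-- Invariant Sylow subgroups are conjugate under the centralizer. -/
theorem exists_centralizer_smul_sylow (hz : Cfsg.IsIsolatedInvolution z) {p : ℕ} [Fact p.Prime]
    (P P' : Sylow p G) (hP : z ∈ Subgroup.normalizer ((P : Subgroup G) : Set G))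
    (hP' : z ∈ Subgroup.normalizer ((P' : Subgroup G) : Set G)) :
    ∃ c ∈ Subgroup.centralizer ({z} : Set G), c • P = P' := by
  haveI hOn : (Cfsg.oddCore G).Normal := H19.pPrimeCore_normal 2 G
  have hcop : (Nat.card (Subgroup.zpowers z)).Coprime (Nat.card (Cfsg.oddCore G)) := by
    rw [Nat.card_zpowers, hz.1]; exact (H19.pPrimeCore_coprime 2).symm
  have hAN : Subgroup.zpowers z ≤ Subgroup.normalizer ((Cfsg.oddCore G : Subgroup G) : Set G) :=
    (Subgroup.normalizer_eq_top_iff.mpr hOn).symm ▸ le_top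
  have hsolv : Group.IsSolvable (Subgroup.zpowers z) :=
    isSolvable_of_comm fun a b => Subtype.ext (by
      obtain ⟨i, hi⟩ := Subgroup.mem_zpowers_iff.mp a.2
      obtain ⟨j, hj⟩ := Subgroup.mem_zpowers_iff.mp b.2
      simp only [Subgroup.coe_mul, ← hi, ← hj, ← zpow_add, add_comm])
  have hfix : ∀ P : Sylow p G, z ∈ Subgroup.normalizer ((P : Subgroup G) : Set G) →
      ∀ a ∈ Subgroup.zpowers z, a • P = P := fun P h a ha =>
    Sylow.smul_eq_iff_mem_normalizer.mpr (zpowers_le_normalizer h ha)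
  obtain ⟨g, hg⟩ := MulAction.exists_smul_eq G P P'
  have hk : ∀ a ∈ Subgroup.zpowers z, g⁻¹ * (a * g * a⁻¹) ∈ Cfsg.oddCore G := by
    intro a ha
    obtain ⟨i, rfl⟩ := Subgroup.mem_zpowers_iff.mp ha
    have h1 : z ^ i = 1 ∨ z ^ i = z := by
      rcases Int.emod_two_eq_zero_or_one i with h | h
      · left; rw [← zpow_mod_orderOf, hz.1]; simp [h]
      · right; rw [← zpow_mod_orderOf, hz.1]; simp [h]
    rcases h1 with h | h <;> rw [h]
    · simpa using one_mem _
    · have := hOn.conj_mem _ (commutator_mem_oddCore hz g) g⁻¹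
      rwa [inv_inv, show g⁻¹ * (z * g * z⁻¹ * g⁻¹) * g = g⁻¹ * (z * g * z⁻¹) by group] at this
  obtain ⟨n, hn, hgn⟩ := H20.exists_mul_mem_centralizer hAN hcop (Or.inl hsolv) hk
  have hcz : ∀ a ∈ Subgroup.zpowers z, Commute a (g * n) := fun a ha =>
    (Subgroup.mem_centralizer_iff.mp hgn a ha)
  have h1 : n⁻¹ • P = (g * n)⁻¹ • P' := by rw [← hg, smul_smul]; simp [mul_assoc]
  obtain ⟨c, hc, hcP⟩ := H20.exists_centralizer_smul_eq hAN hcop (Or.inl hsolv)
    (y := P) (z := (g * n)⁻¹ • P') (hfix P hP)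
    (fun a ha => by rw [smul_smul, ← (hcz a ha).inv_right.eq.symm, ← smul_smul, hfix P' hP' a ha])
    (Subgroup.inv_mem _ hn) h1
  refine ⟨g * n * c, mul_mem ?_ ?_, by rw [mul_smul, hcP, smul_inv_smul]⟩
  · exact Subgroup.centralizer_le (Set.singleton_subset_iff.mpr (Subgroup.mem_zpowers z)) hgn
  · exact Subgroup.centralizer_le (Set.singleton_subset_iff.mpr (Subgroup.mem_zpowers z)) hc.2

end Cfsg.Agent.H28
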