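import Mathlib
import Cfsg.Agent.H28.BrauerFowler

/-!
# A group of even order greater than 2 has a subgroup of order above the cube root
-/

namespace Cfsg.Agent.H28

/-- A group of even order greater than two has a proper subgroup `H` with `|G| < |H|³`. -/
theorem exists_large_subgroup {G : Type*} [Group G] [Finite G] (heven : Even (Nat.card G))
    (hgt : 2 < Nat.card G) : ∃ H : Subgroup G, H ≠ ⊤ ∧ Nat.card G < Nat.card H ^ 3 := by
  classical
  haveI := Fintype.ofFinite G
  haveI : Fact (Nat.Prime 2) := ⟨Nat.prime_two⟩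
  -- a subgroup of index two is always large enough
  have htwo : ∀ H : Subgroup G, H.index = 2 → ∃ H : Subgroup G, H ≠ ⊤ ∧ Nat.card G < Nat.card H ^ 3 := by
    intro H hH
    refine ⟨H, fun e => by simp [e] at hH, ?_⟩
    have h := H.index_mul_card
    rw [hH] at h
    have h2 : 4 ≤ Nat.card H ^ 2 := Nat.pow_le_pow_left (show 2 ≤ Nat.card H by omega) 2
    nlinarith
  by_cases hz : ∃ z : G, z ∈ Subgroup.center G ∧ orderOf z = 2
  · obtain ⟨z, hzc, hz2⟩ := hz
    set N := Subgroup.zpowers z with hN
    haveI : N.Normal := by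
      refine ⟨fun a ha g => ?_⟩
      obtain ⟨k, rfl⟩ := Subgroup.mem_zpowers_iff.mp ha
      rw [Subgroup.mem_center_iff.mp (zpow_mem hzc k) g, mul_inv_cancel_right]
      exact zpow_mem (Subgroup.mem_zpowers _) k
    have hcN : Nat.card N = 2 := by rw [hN, Nat.card_zpowers, hz2]
    have hcard : Nat.card G = Nat.card (G ⧸ N) * 2 := by
      rw [← hcN, ← Subgroup.index_eq_card, Subgroup.index_mul_card]
    rcases Nat.even_or_odd (Nat.card (G ⧸ N)) with he | ho
    · rcases Nat.lt_or_ge 2 (Nat.card (G ⧸ N)) with h2 | h2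
      · have hdec : Nat.card (G ⧸ Subgroup.zpowers z) < Nat.card G := by
          show Nat.card (G ⧸ N) < _
          omega
        obtain ⟨H, hH, hlt⟩ := exists_large_subgroup (G := G ⧸ N) he h2
        refine ⟨H.comap (QuotientGroup.mk' N), fun e => hH ?_, ?_⟩
        · rw [← Subgroup.map_comap_eq_self_of_surjective (QuotientGroup.mk'_surjective N) H, e,
            Subgroup.map_top_of_surjective _ (QuotientGroup.mk'_surjective N)]
        · have hH2 : Nat.card (H.comap (QuotientGroup.mk' N)) = Nat.card H * 2 := by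
            have h1 := (H.comap (QuotientGroup.mk' N)).index_mul_card
            rw [Subgroup.index_comap_of_surjective _ (QuotientGroup.mk'_surjective N), hcard,
              ← H.index_mul_card, mul_assoc] at h1
            exact Nat.eq_of_mul_eq_mul_left (Nat.pos_of_ne_zero H.index_ne_zero_of_finite) h1
          rw [hH2, hcard, mul_pow, show (2 : ℕ) ^ 3 = 8 from rfl]
          omega
      · refine ⟨N, fun e => ?_, ?_⟩
        · rw [e, Subgroup.card_top] at hcN; omega
        · rw [hcN]; omega
    · obtain ⟨T⟩ : Nonempty (Sylow 2 G) := inferInstance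
      have hT : IsCyclic (T : Subgroup G) := by
        apply isCyclic_of_prime_card (p := 2)
        obtain ⟨k, hk⟩ := IsPGroup.iff_card.mp T.2
        have h2 : 2 ∣ Nat.card (T : Subgroup G) := by
          exact Sylow.dvd_card_of_dvd_card T (even_iff_two_dvd.mp heven)
        have hd := Subgroup.card_subgroup_dvd_card (T : Subgroup G)
        rw [hk] at h2 hd ⊢
        rcases k with _ | _ | k
        · norm_num at h2
        · rfl
        · exfalso
          have : 4 ∣ Nat.card G := (pow_dvd_pow 2 (by omega : 2 ≤ k + 1 + 1)).trans hd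
          obtain ⟨a, ha⟩ := ho
          omega
      obtain ⟨H, hH⟩ := exists_index_two_of_cyclic_sylow heven T hT
      exact htwo H hH
  have hnoncentral : ∀ u : G, orderOf u = 2 → u ∉ Subgroup.center G := fun u hu h => hz ⟨u, h, hu⟩
  obtain ⟨u₀, hu₀⟩ := exists_prime_orderOf_dvd_card' (G := G) 2 (even_iff_two_dvd.mp heven)
  obtain ⟨t, ht, hmax⟩ := Finset.exists_max_image (Finset.univ.filter fun u : G => orderOf u = 2)
    (fun u => Nat.card (Subgroup.centralizer ({u} : Set G))) ⟨u₀, by simpa using hu₀⟩
  simp only [Finset.mem_filter, Finset.mem_univ, true_and] at ht hmax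
  by_cases hone : ∀ s : G, orderOf s = 2 → IsConj s t
  swap
  · simp only [not_forall] at hone
    obtain ⟨s, hs, hnc⟩ := hone
    exact ⟨_, centralizer_ne_top (hnoncentral t ht), card_lt_of_two_classes hs ht hnc hmax⟩
  have hZ : Odd (Nat.card (Subgroup.center G)) := by
    by_contra h
    rw [Nat.not_odd_iff_even] at h
    obtain ⟨z, hz'⟩ := exists_prime_orderOf_dvd_card' (G := Subgroup.center G) 2
      (even_iff_two_dvd.mp h)
    exact hz ⟨z, z.2, by rwa [Subgroup.orderOf_coe]⟩
  obtain ⟨H, hH, hH2 | hlt⟩ := exists_index_bound heven hZ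
  · exact htwo H hH2
  set n := Nat.card {t : G // orderOf t = 2}
  set C := Nat.card (Subgroup.centralizer ({t} : Set G)) with hC
  by_cases hbig : Nat.card G < C ^ 3
  · exact ⟨_, centralizer_ne_top (hnoncentral t ht), hbig⟩
  refine ⟨H, hH, ?_⟩
  have hg : n * C = Nat.card G := by
    rw [hC, ← card_isConj_mul_card_centralizer t]
    congr 1
    refine Nat.card_congr (Equiv.subtypeEquivRight fun s => ?_)
    refine ⟨fun hs => (hone s hs).symm, fun hs => ?_⟩
    obtain ⟨a, ha⟩ := isConj_iff.mp hs
    rw [← ha, orderOf_conj_eq, ht]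
  have hn : 0 < n := by
    haveI : Nonempty {t : G // orderOf t = 2} := ⟨⟨t, ht⟩⟩
    exact Nat.card_pos
  have hm : 2 * H.index < C * (C + 1) := by
    rw [← hg] at hlt
    refine Nat.lt_of_mul_lt_mul_right (a := n ^ 2) ?_
    calc 2 * H.index * n ^ 2 < n * C * (n * C + n) := hlt
      _ = C * (C + 1) * n ^ 2 := by ring
  have hC2 : 2 ≤ C := by
    have h : 2 ∣ C := by
      rw [← ht, ← Subgroup.orderOf_mk t (mem_centralizer_singleton'.mpr rfl)]
      exact orderOf_dvd_natCard _
    exact Nat.le_of_dvd Nat.card_pos h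
  have hm2 : H.index < C ^ 2 := by nlinarith
  have hgH := H.index_mul_card
  have hbig' : C ^ 3 ≤ Nat.card G := not_lt.mp hbig
  have hHC : C < Nat.card H := by
    refine Nat.lt_of_mul_lt_mul_left (a := C ^ 2) ?_
    calc C ^ 2 * C = C ^ 3 := by ring
      _ ≤ H.index * Nat.card H := by rw [hgH]; exact hbig'
      _ < C ^ 2 * Nat.card H := Nat.mul_lt_mul_of_pos_right hm2 Nat.card_pos
  calc Nat.card G = H.index * Nat.card H := hgH.symm
    _ < C ^ 2 * Nat.card H := Nat.mul_lt_mul_of_pos_right hm2 Nat.card_pos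
    _ ≤ Nat.card H ^ 2 * Nat.card H := Nat.mul_le_mul_right _ (Nat.pow_le_pow_left hHC.le 2)
    _ = Nat.card H ^ 3 := by ring
termination_by Nat.card G
decreasing_by exact hdec

end Cfsg.Agent.H28
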